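import Mathlib
import Cfsg.Agent.Lib.ClassMax.Decomp
import Cfsg.Agent.Lib.Orth12.Geom

/-!
Stabilisers of non-degenerate subspaces in orthogonal groups of small dimension.
-/

set_option autoImplicit false
set_option linter.unusedSectionVars false

namespace H12G

open Module Cfsg H28 H97

section General

variable {F V : Type*} [Field F] [AddCommGroup V] [Module F V] {σ : F →+* F} {P : PQ F V σ}
  [FiniteDimensional F V] {M : Subgroup (V ≃ₗ[F] V)}

variable (P) in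
/-- every isometry agrees on `U` with an element of `E` -/
def Agree (U : Submodule F V) : Prop := ∀ g ∈ P.Isom, ∃ g' ∈ EG P, ∀ u ∈ U, g' u = g u

theorem Agree.move (hP : P.B.SeparatingLeft) {W : Submodule F V} {d d' : V}
    (h : Agree P (W ⊔ F ∙ d)) (hq : P.q d' - P.q d ∈ P.Λ)
    (hdW : d ∈ perp P W) (hd'W : d' ∈ perp P W) (hd : d ∉ W) (hd' : d' ∉ W)
    {g : V ≃ₗ[F] V} (hg : g ∈ P.Isom) (hgW : g ∈ stab W) :
    ∃ g' ∈ stab W ⊓ EG P, (∀ u ∈ W, g' u = g u) ∧ g' d = d' := by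
  obtain ⟨s, hs, hsd, hsW⟩ := P.witt_step hP W (u := g d) (v := d') (fun h => hd ((hgW d).2 h)) hd'
    (by simpa using P.Λ.sub_mem hq (hg.2 d)) (fun u hu => by
      rw [mem_perp'.1 hd'W u hu, mem_perp'.1 ((stab_perp hg hgW d).1 hdW) u hu])
  obtain ⟨g', hg', e'⟩ := h _ (P.Isom.mul_mem hs hg)
  have h1 : ∀ u ∈ W, g' u = g u := fun u hu => by
    rw [e' u (Submodule.mem_sup_left hu), le_mul_apply, hsW _ ((hgW u).1 hu)]
  refine ⟨g', ⟨mem_stab_of_maps fun u hu => ?_, hg'⟩, h1, ?_⟩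
  · rw [h1 u hu]; exact (hgW u).1 hu
  · rw [e' d (Submodule.mem_sup_right (Submodule.mem_span_singleton_self d)), le_mul_apply, hsd]

theorem Agree.EG_le_of_gain (hP : P.B.SeparatingLeft) {W : Submodule F V} (hirr : Irr P W)
    {d y : V} {c : F} (h : Agree P (W ⊔ F ∙ d)) (hd : P.q d ∈ P.Λ) (hdW : d ∈ perp P W)
    (hd' : d ∉ W) (hH : stab W ⊓ EG P ≤ M) (hdy : P.B d y = 0)
    (hc : c - P.q y ∈ P.Λ) (hy : y ∉ perp P W) (hM : Has M (eu P d y c)) : EG P ≤ M := by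
  have hin : ∀ w c, w ∈ perp P W → P.B d w = 0 → c - P.q w ∈ P.Λ → Has M (eu P d w c) :=
    fun w c hw hdw hc => (has_eu_stab_of_perp hd hdw hc hdW hw).mono hH
  have hval : ∀ w c c', P.B d w = 0 → c - P.q w ∈ P.Λ → c' - P.q w ∈ P.Λ → Has M (eu P d w c) →
      Has M (eu P d w c') := fun w c c' hw hc hc' hM =>
    has_eu_valid hd hw hM (hin 0 _ (Submodule.zero_mem _) (by simp) (by
      have := P.Λ.sub_mem (P.Λ.sub_mem hc' hc) P.q_zero
      convert this using 1; ring))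
  have hadd : ∀ w w', P.B d w = 0 → P.B d w' = 0 → Has M (eu P d w (P.q w)) →
      Has M (eu P d w' (P.q w')) → Has M (eu P d (w + w') (P.q (w + w'))) :=
    fun w w' hw hw' h1 h2 => hval _ _ _ (by simp [hw, hw']) (valid_add (by simp) (by simp)) (by simp)
      (has_eu_add hd hw hw' h1 h2)
  let S : Submodule F V :=
    { carrier := {w | P.B d w = 0 ∧ Has M (eu P d w (P.q w))}
      zero_mem' := ⟨by simp, hin 0 _ (Submodule.zero_mem _) (by simp) (by simp)⟩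
      add_mem' := by
        rintro w w' ⟨hw, h1⟩ ⟨hw', h2⟩
        exact ⟨by simp [hw, hw'], hadd w w' hw hw' h1 h2⟩
      smul_mem' := by
        rintro a w ⟨hw, h1⟩
        refine ⟨by simp [hw], ?_⟩
        by_cases ha : a = 0
        · rw [ha, zero_smul]; exact hin 0 _ (Submodule.zero_mem _) (by simp) (by simp)
        have hσ : σ a ≠ 0 := by simpa using ha
        obtain ⟨s, hs, hsW, hsd⟩ := h.move hP (d' := σ a • d)
          (P.Λ.sub_mem (P.q_smul_mem hd _) hd) hdW (Submodule.smul_mem _ _ hdW) hd'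
          (fun hh => hd' ((W.smul_mem_iff hσ).1 hh)) P.Isom.one_mem (stab W).one_mem
        have hsI := EG_le_isom hs.2
        have h2 := has_eu_conj h1 (hH hs) hsI
        have h3 : P.B d (s w) = 0 := by
          have := hsI.1 d w
          rw [hsd, B_smul_left, P.σσ, hw] at this
          exact (mul_eq_zero.1 this).resolve_left ha
        rw [hsd] at h2
        have h4 : Has M (eu P d (a • s w) (P.q (a • s w))) := by
          refine hval _ (a * σ a * P.q w) _ (by simp [h3]) ?_ (by simp)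
            (h2.congr fun x => by rw [eu_smul, P.σσ])
          have := valid_smul a (isom_valid hsI (w := w) (c := P.q w) (by simp))
          rwa [mul_comm (σ a) a] at this
        have h5 : a • (w - s w) ∈ perp P W := Submodule.smul_mem _ _ fun u hu => by
          have := hsI.1 u w
          rw [hsW u hu] at this
          simp [← this]
        have h6 := hadd _ _ (by simp [h3]) (by simp [h3, hw]) h4
          (hin _ _ h5 (by simp [h3, hw]) (by simp))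
        have h7 : a • s w + a • (w - s w) = a • w := by module
        rwa [h7] at h6 }
  have hSd : ∀ w ∈ S, P.B d w = 0 := fun w hw => hw.1
  have hY := hirr (W ⊓ perp P S) inf_le_left (fun g hg hgW u hu => by
    obtain ⟨s, hs, hsW, hsd⟩ := h.move hP (d' := d) (by simp) hdW hdW hd' hd' hg hgW
    have hsI := EG_le_isom hs.2
    refine ⟨(hgW u).1 hu.1, fun w hw => ?_⟩
    have h1 : s⁻¹ d = d := by
      conv_lhs => rw [← hsd]
      rw [le_inv_apply_apply]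
    have h2 : s⁻¹ w ∈ S := by
      have h3 := has_eu_conj hw.2 (M.inv_mem (hH hs)) (P.Isom.inv_mem hsI)
      have h4 : P.B d (s⁻¹ w) = 0 := by rw [← h1, (P.Isom.inv_mem hsI).1, hw.1]
      rw [h1] at h3
      exact ⟨h4, hval _ _ _ h4 (isom_valid (P.Isom.inv_mem hsI) (by simp)) (by simp) h3⟩
    rw [← hsW u hu.1, ← le_apply_inv s w, hsI.1]
    exact hu.2 _ h2)
  have hyS : y ∈ S := ⟨hdy, hval _ _ _ hdy hc (by simp) hM⟩
  have hY0 : W ⊓ perp P S = ⊥ := hY.resolve_right fun h1 => hy fun u hu => by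
    rw [← h1] at hu
    exact P.eq_zero_symm (hu.2 y hyS)
  have hX : XLe P M d := by
    intro w c hw hc
    suffices h1 : w ∈ S from hval _ _ _ hw (by simp) hc h1.2
    rw [← perp_perp hP S]
    intro z hz
    have h1 : z ∈ perp P (perp P (W ⊔ F ∙ d)) := fun u hu => by
      rw [perp_sup] at hu
      have h2 := mem_perp_singleton.1 hu.2
      exact hz u ⟨h2, hin _ _ hu.1 h2 (by simp)⟩
    rw [perp_perp hP] at h1
    obtain ⟨a, ha, b, hb, rfl⟩ := Submodule.mem_sup.1 h1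
    obtain ⟨t, rfl⟩ := Submodule.mem_span_singleton.1 hb
    have h2 : a ∈ W ⊓ perp P S := ⟨ha, fun u hu => by
      have := hz u hu
      simpa [P.eq_zero_symm (hSd u hu)] using this⟩
    rw [hY0, Submodule.mem_bot] at h2
    simp [h2, hw]
  obtain ⟨d', hd'q, hdd', hd'W⟩ := P.exists_partner hP W hd' hd (mem_perp'.1 hdW)
  obtain ⟨s, hs, -, hsd⟩ := h.move hP (d' := d') (P.Λ.sub_mem hd'q hd) hdW
    (mem_perp'.2 hd'W) hd' (fun hh => by simp [hdW d' hh] at hdd') P.Isom.one_mem (stab W).one_mem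
  refine EG_le_of_xle hP hd'q hd (hsd ▸ hX.apply (hH hs) (EG_le_isom hs.2)) hX (by simp [hdd'])

theorem exists_decomp {W : Submodule F V} (hW : W ⊓ perp P W = ⊥) (x : V) :
    ∃ u ∈ perp P W, ∃ w ∈ W, x = u + w := by
  obtain ⟨w, hw, u, hu, rfl⟩ := Submodule.mem_sup.1
    (show x ∈ W ⊔ perp P W by rw [(isCompl_perp hW).sup_eq_top]; trivial)
  exact ⟨u, hu, w, hw, add_comm _ _⟩

theorem eq_zero_of_nd {W : Submodule F V} (hW : W ⊓ perp P W = ⊥) {x : V} (h : x ∈ W)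
    (h' : x ∈ perp P W) : x = 0 := (Submodule.mem_bot F).1 (hW ▸ ⟨h, h'⟩)

/-- Without new root elements, an element of `M` keeping a singular vector of `perp W` inside
`perp W` stabilises `W`. -/
theorem stab_of_no_gain (hP : P.B.SeparatingLeft) {W : Submodule F V} (hW : W ⊓ perp P W = ⊥)
    (hH : stab W ⊓ EG P ≤ M) (hM : M ≤ EG P)
    (hno : ∀ d ∈ perp P W, d ≠ 0 → P.q d ∈ P.Λ → ∀ y c, P.B d y = 0 → c - P.q y ∈ P.Λ →
      Has M (eu P d y c) → y ∈ perp P W)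
    {m : V ≃ₗ[F] V} (hm : m ∈ M) {d : V} (hd : d ∈ perp P W) (hd0 : d ≠ 0) (hq : P.q d ∈ P.Λ)
    (hmd : m d ∈ perp P W) : m ∈ stab W := by
  have hmI := EG_le_isom (hM hm)
  have hmd0 : m d ≠ 0 := by simpa using hd0
  have hq' := isom_q hmI hq
  have h1 : ∀ y ∈ perp P W, P.B d y = 0 → m y ∈ perp P W := fun y hy hdy =>
    hno _ hmd hmd0 hq' _ _ (by rw [hmI.1, hdy]) (isom_valid hmI (c := P.q y) (by simp))
      (has_eu_conj ((has_eu_stab_of_perp hq hdy (by simp) hd hy).mono hH) hm hmI)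
  obtain ⟨e, he, -, hed⟩ := exists_partner_in hP (perp_nondeg hP hW) hd hd0 hq
  have hde : P.B d e = P.ε := by rw [P.symm, hed]; simp
  obtain ⟨u, hu, w, hw, hme⟩ := exists_decomp hW (m e)
  have hdw : P.B (m d) w = 0 := mem_perp'.1 hmd w hw
  obtain ⟨s, hs, es⟩ := has_eu_EG hq' hdw (c := P.q w) (by simp)
  have hall : ∀ k : V ≃ₗ[F] V, k ∈ P.Isom → k e ∈ perp P W →
      (∀ y ∈ perp P W, P.B d y = 0 → k y ∈ perp P W) → k ∈ stab W := fun k hk h2 h3 =>
    stab_of_perp hP hk (mem_stab_of_maps fun x hx => by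
      have := (perp P W).add_mem (h3 (x - (P.ε * P.B d x) • e)
        ((perp P W).sub_mem hx ((perp P W).smul_mem _ he)) (by
          simp only [map_sub, map_smul, hde, smul_eq_mul]
          linear_combination (-P.B d x) * P.εε)) ((perp P W).smul_mem (P.ε * P.B d x) h2)
      simpa using this)
  have h2 : s * m ∈ stab W := by
    refine hall _ (P.Isom.mul_mem (EG_le_isom hs) hmI) ?_ fun y hy hdy => ?_
    · rw [le_mul_apply, es, eu_apply, hmI.1, hde, P.εε, one_smul, hme, add_right_comm,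
        add_sub_cancel_right]
      exact (perp P W).add_mem hu ((perp P W).smul_mem _ hmd)
    · rw [le_mul_apply, es, eu_apply, hmI.1, hdy, mul_zero, mul_zero, zero_smul, sub_zero]
      exact (perp P W).add_mem (h1 y hy hdy) ((perp P W).smul_mem _ hmd)
  have h3 : s ∈ M := by
    simpa using M.mul_mem (hH ⟨h2, (EG P).mul_mem hs (hM hm)⟩) (M.inv_mem hm)
  have h4 := eq_zero_of_nd hW hw (hno _ hmd hmd0 hq' w _ hdw (by simp) ⟨s, h3, es⟩)
  exact hall m hmI (by rw [hme, h4, add_zero]; exact hu) h1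

end General

section Quad

variable {F V : Type*} [Field F] [AddCommGroup V] [Module F V] [FiniteDimensional F V]
  {Q : QuadraticForm F V} {M : Subgroup (V ≃ₗ[F] V)}

local notation "𝒫" => PQ.ofQuad Q
local notation "𝔅" => PQ.B (PQ.ofQuad Q)

theorem q_eq (x : V) : (𝒫).q x = Q x := rfl

theorem eps_eq : (𝒫).ε = 1 := rfl

theorem mem_lam {a : F} : a ∈ (𝒫).Λ ↔ a = 0 := AddSubgroup.mem_bot

theorem B_symm (x y : V) : 𝔅 x y = 𝔅 y x := QuadraticMap.polar_comm Q x y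

theorem Q_add' (x y : V) : Q (x + y) = Q x + Q y + 𝔅 x y := H12.Q_add Q x y

theorem B_self' (x : V) : 𝔅 x x = 2 * Q x := H12.B_self Q x

theorem eu_apply' (d w : V) (c : F) (x : V) :
    eu 𝒫 d w c x = x + (𝔅 w x - c * 𝔅 d x) • d - 𝔅 d x • w := by
  rw [eu_apply, eps_eq, one_mul, one_mul]

theorem universal_in [Finite F] {C : Submodule F V} (hC : C ⊓ perp 𝒫 C = ⊥)
    (h : 2 ≤ finrank F C) (a : F) : ∃ x ∈ C, Q x = a := by
  have hn : H12.Nondeg (Q.restrict C) := fun v hv =>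
    Subtype.ext (eq_zero_of_nd hC v.2 (mem_perp'.2 fun u hu => hv ⟨u, hu⟩))
  obtain ⟨x, hx⟩ := hn.universal h a
  exact ⟨x, x.2, hx⟩

theorem agree_of_univ [Finite F] (hP : (𝒫).B.SeparatingLeft) (hn : 5 ≤ finrank F V)
    {U : Submodule F V} (hU : ∀ a ≠ 0, ∃ x ∈ perp 𝒫 U, Q x = a) : Agree 𝒫 U := by
  intro g hg
  obtain ⟨s, hs, -, hgs⟩ := (isoK_quad Q).isom_le_EGmul hP hn (fixer F (U : Set V))
    (fun c d _ hc => by
      by_cases h0 : Q d = 0
      · exact Or.inl (has_qrefl_EG_of_sing h0 hc)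
      obtain ⟨x, hx, hxd⟩ := hU _ h0
      have hq : (𝒫).q x - (𝒫).q d ∈ (𝒫).Λ := mem_lam.2 (sub_eq_zero.2 hxd)
      refine Or.inr ⟨x, fun h1 => h0 (by rw [← hxd, h1, map_zero]), hq, ?_⟩
      obtain ⟨s, -, es⟩ := has_qrefl_isom hP (qrefl_valid_congr hc hq)
      refine ⟨s, fun u hu => ?_, es⟩
      rw [es, PQ.qrefl_apply, mem_perp'.1 hx u hu]
      simp) hg
  refine ⟨g * s⁻¹, hgs, fun u hu => ?_⟩
  rw [le_mul_apply, (fixer F (U : Set V)).inv_mem hs u hu]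

/-- splitting off a hyperbolic pair from a non-degenerate subspace -/
theorem nd_inf_pair {U : Submodule F V} (hU : U ⊓ perp 𝒫 U = ⊥) {e f : V} (heU : e ∈ U)
    (hfU : f ∈ U) (he : Q e = 0) (hf : Q f = 0) (hef : 𝔅 e f = 1) :
    (U ⊓ perp 𝒫 (Submodule.span F {e, f})) ⊓
      perp 𝒫 (U ⊓ perp 𝒫 (Submodule.span F {e, f})) = ⊥ := by
  rw [eq_bot_iff]
  rintro x ⟨⟨hx, hx'⟩, hx''⟩
  have h1 := mem_perp_span.1 hx'
  refine eq_zero_of_nd hU hx fun z hz => ?_
  obtain ⟨h2, h3⟩ := pair_proj (P := 𝒫) he hf hef z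
  have := hx'' _ ⟨U.sub_mem (U.sub_mem hz (U.smul_mem _ heU)) (U.smul_mem _ hfU),
    mem_perp_span.2 (by rintro _ (rfl | rfl) <;> assumption)⟩
  simpa [h1 e, h1 f] using this

theorem finrank_span_pair_le (x y : V) : finrank F (Submodule.span F ({x, y} : Set V)) ≤ 2 := by
  rw [Submodule.span_insert]
  have := finrank_sup_le' (F ∙ x) (F ∙ y)
  have := finrank_span_singleton_le (F := F) x
  have := finrank_span_singleton_le (F := F) y
  omega

theorem agree_of_four [Finite F] (hP : (𝒫).B.SeparatingLeft) (hn : 5 ≤ finrank F V)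
    {W : Submodule F V} (hW : W ⊓ perp 𝒫 W = ⊥) (h4 : 4 ≤ finrank F (perp 𝒫 W)) {d : V}
    (hd : d ∈ perp 𝒫 W) (hd0 : d ≠ 0) (hq : Q d = 0) : Agree 𝒫 (W ⊔ F ∙ d) := by
  obtain ⟨e, he, heq, hed⟩ := exists_partner_in hP (perp_nondeg hP hW) hd hd0 hq
  refine agree_of_univ hP hn fun a _ => ?_
  have h1 := finrank_inf_perp (P := 𝒫) (perp 𝒫 W) (Submodule.span F {e, d})
  have h2 := finrank_span_pair_le (F := F) e d
  obtain ⟨x, hx, hxa⟩ := universal_in (nd_inf_pair (perp_nondeg hP hW) he hd heq hq hed)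
    (by omega) a
  exact ⟨x, by rw [perp_sup]; exact ⟨hx.1, mem_perp_singleton.2 (mem_perp_span.1 hx.2 d (by simp))⟩,
    hxa⟩

/-- The singular vectors span a non-degenerate isotropic subspace. -/
theorem le_of_sing (hP : (𝒫).B.SeparatingLeft) {T S : Submodule F V} (hT : T ⊓ perp 𝒫 T = ⊥)
    {d : V} (hd : d ∈ T) (hd0 : d ≠ 0) (hq : Q d = 0) (hS : ∀ x ∈ T, Q x = 0 → x ∈ S) : T ≤ S := by
  obtain ⟨e, he, heq, hed⟩ := exists_partner_in hP hT hd hd0 hq
  intro z hz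
  obtain ⟨h2, h3⟩ := pair_proj (P := 𝒫) heq hq hed z
  have hz' := T.sub_mem (T.sub_mem hz (T.smul_mem ((𝒫).ε * 𝔅 d z) he))
    (T.smul_mem (𝔅 e z) hd)
  set z' := z - ((𝒫).ε * 𝔅 d z) • e - 𝔅 e z • d with hz'd
  have h4 := hS _ (T.add_mem hz' (T.add_mem he (T.smul_mem _ hd))) ((sub_zero _).symm.trans
    (mem_lam.1 (q_add_pair (P := 𝒫) heq hq hed ((𝒫).eq_zero_symm h2) ((𝒫).eq_zero_symm h3) 0)))
  have h5 := hS e he heq
  have h6 := hS d hd hq
  have h7 := (S.add_mem_iff_left (S.add_mem h5 (S.smul_mem _ h6))).1 h4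
  simpa [hz'd] using S.add_mem (S.add_mem h7 (S.smul_mem (𝔅 e z) h6))
    (S.smul_mem ((𝒫).ε * 𝔅 d z) h5)

/-- A subspace meeting `U` anisotropically and invariant under the root elements supported on
`Y ≤ U` is perpendicular to `Y`. -/
theorem perp_of_inv [Finite F] {T Y : Submodule F V} (h3 : 3 ≤ finrank F Y)
    (han : ∀ x ∈ T, x ∈ Y → Q x = 0 → x = 0)
    (hinv : ∀ a ∈ Y, ∀ b ∈ Y, Q a = 0 → 𝔅 a b = 0 → ∀ y ∈ T, eu 𝒫 a b (Q b) y ∈ T)
    (hex : (∃ t : F, t * t ≠ t) ∨ ∀ a ∈ Y, Q a = 0 → 3 ≤ finrank F ↥(Y ⊓ perp 𝒫 (F ∙ a)) ∨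
      ∃ b ∈ Y ⊓ perp 𝒫 (F ∙ a), b ∉ F ∙ a ∧ Q b = 0) :
    T ≤ perp 𝒫 Y := by
  have hf : ∀ a ∈ Y, ∀ b ∈ Y, Q a = 0 → 𝔅 a b = 0 → ∀ y ∈ T,
      (𝔅 b y - Q b * 𝔅 a y) • a - 𝔅 a y • b ∈ T := fun a ha b hb hq hab y hy => by
    have := T.sub_mem (hinv a ha b hb hq hab y hy) hy
    rw [eu_apply'] at this
    convert this using 1; abel
  have h1 : ∀ a ∈ Y, Q a = 0 → ∀ y ∈ T, 𝔅 a y = 0 := by
    intro a ha hq y hy
    by_contra hβ
    have ha0 : a ≠ 0 := by rintro rfl; simp at hβ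
    have haT : ∀ c : F, c • a ∈ T → c = 0 := fun c hc => by
      have := han _ hc (Y.smul_mem c ha) (by rw [H12.Q_smul, hq, mul_zero])
      exact (smul_eq_zero.1 this).resolve_right ha0
    have h5 : ∀ b ∈ Y ⊓ perp 𝒫 (F ∙ a), b ∉ F ∙ a → Q b ≠ 0 := fun b hb hba h0 => by
      have hab := mem_perp_singleton.1 hb.2
      have := han _ (hf a ha b hb.1 hq hab y hy)
        (Y.sub_mem (Y.smul_mem _ ha) (Y.smul_mem _ hb.1)) (by
          rw [sub_eq_add_neg, ← neg_smul, Q_add', H12.Q_smul, H12.Q_smul, hq, h0]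
          simp [hab])
      refine hba (Submodule.mem_span_singleton.2 ⟨(𝔅 a y)⁻¹ * (𝔅 b y - Q b * 𝔅 a y), ?_⟩)
      rw [mul_smul, sub_eq_zero.1 this, smul_smul, inv_mul_cancel₀ hβ, one_smul]
    have h6 := finrank_inf_perp (P := 𝒫) Y (F ∙ a)
    have h7 := finrank_span_singleton_le (F := F) a
    by_cases ht : ∃ t : F, t * t ≠ t
    · obtain ⟨t, ht⟩ := ht
      obtain ⟨b, hb, hba⟩ : ∃ b ∈ Y ⊓ perp 𝒫 (F ∙ a), b ∉ F ∙ a := by
        by_contra hc
        push Not at hc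
        have := Submodule.finrank_mono (show Y ⊓ perp 𝒫 (F ∙ a) ≤ F ∙ a from hc)
        omega
      have hab := mem_perp_singleton.1 hb.2
      have := T.sub_mem (T.smul_mem t (hf a ha b hb.1 hq hab y hy))
        (hf a ha _ (Y.smul_mem t hb.1) hq (by simp [hab]) y hy)
      refine mul_ne_zero (mul_ne_zero (sub_ne_zero.2 ht) (h5 b hb hba)) hβ (haT _ ?_)
      convert this using 1
      rw [H12.Q_smul, B_smul_left]
      simp only [RingHom.id_apply]
      module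
    · have h8 := (hex.resolve_left ht a ha hq).resolve_right fun ⟨b, hb, hba, h0⟩ => h5 b hb hba h0
      have h9 : ∀ t : F, t ≠ 0 → t = 1 := fun t h0 => by
        push Not at ht
        exact mul_right_cancel₀ h0 ((ht t).trans (one_mul t).symm)
      have key : ∀ X : Submodule F V, finrank F X ≤ 2 → ∃ b ∈ Y ⊓ perp 𝒫 (F ∙ a), b ∉ X :=
        fun X hX => by
          by_contra hc
          push Not at hc
          have := Submodule.finrank_mono (show Y ⊓ perp 𝒫 (F ∙ a) ≤ X from hc)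
          omega
      obtain ⟨b, hb, hba⟩ := key (F ∙ a) (by omega)
      obtain ⟨b', hb', hba'⟩ := key _ (finrank_span_pair_le a b)
      have hbX : b ∈ Submodule.span F {a, b} := Submodule.subset_span (by simp)
      have haX : F ∙ a ≤ Submodule.span F {a, b} := Submodule.span_mono (by simp)
      have e1 := h9 _ (h5 b hb hba)
      have e2 := h9 _ (h5 b' hb' fun h => hba' (haX h))
      have e3 := h9 _ (h5 _ (add_mem hb hb') fun h => hba' ((Submodule.add_mem_iff_right _ hbX).1 (haX h)))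
      have hab := mem_perp_singleton.1 hb.2
      have hab' := mem_perp_singleton.1 hb'.2
      have := T.sub_mem (T.add_mem (hf a ha b hb.1 hq hab y hy) (hf a ha b' hb'.1 hq hab' y hy))
        (hf a ha _ (Y.add_mem hb.1 hb'.1) hq (by simp [hab, hab']) y hy)
      refine neg_ne_zero.2 hβ (haT _ ?_)
      convert this using 1
      rw [e1, e2, e3, map_add, LinearMap.add_apply]
      module
  obtain ⟨a, ha, ha0, hq⟩ := isoK_quad Q Y h3
  intro y hy x hx
  by_cases hax : 𝔅 a x = 0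
  · have := hf a ha x hx hq hax y hy
    rw [h1 a ha hq y hy, mul_zero, sub_zero, zero_smul, sub_zero] at this
    exact (smul_eq_zero.1 (han _ this (Y.smul_mem _ ha) (by
      rw [H12.Q_smul, show Q a = 0 from hq, mul_zero]))).resolve_right ha0
  · have := h1 (x + (-(Q x / 𝔅 a x)) • a) (Y.add_mem hx (Y.smul_mem _ ha)) (by
      rw [Q_add', H12.Q_smul, show Q a = 0 from hq, map_smul, B_symm x a, smul_eq_mul, neg_mul,
        div_mul_cancel₀ _ hax]
      ring) y hy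
    simpa [h1 a ha hq y hy] using this

theorem le_of_core [Finite F] (hP : (𝒫).B.SeparatingLeft) {W T : Submodule F V}
    (hW : W ⊓ perp 𝒫 W = ⊥) (hT : T ⊓ perp 𝒫 T = ⊥) (h4 : 4 ≤ finrank F (perp 𝒫 W))
    (hd : finrank F T = finrank F (perp 𝒫 W)) (han : ∀ x ∈ T, x ∈ perp 𝒫 W → Q x = 0 → x = 0)
    (hfix : ∀ d ∈ T, d ≠ 0 → Q d = 0 → ∀ h ∈ stab W ⊓ EG 𝒫, h d = d → ∀ y ∈ T, h y ∈ T)
    (hno : ∀ d ∈ T, d ≠ 0 → Q d = 0 → ∀ y, 𝔅 d y = 0 → Has (stab W ⊓ EG 𝒫) (eu 𝒫 d y (Q y)) → y ∈ T)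
    (hmin : (∀ t : F, t * t = t) → finrank F T = 4 → ∀ x ∈ T, ∀ y ∈ T, x ≠ 0 → Q x = 0 → Q y = 0 →
      𝔅 x y = 0 → y ∈ F ∙ x) : T ≤ W := by
  have K : ∀ u ∈ perp 𝒫 W, ∀ w ∈ W, u + w ∈ T → u + w ≠ 0 → Q (u + w) = 0 →
      ((∃ t : F, t * t ≠ t) ∨ 5 ≤ finrank F T ∨ Q u = 0) →
      T ≤ perp 𝒫 (perp 𝒫 W ⊓ perp 𝒫 (F ∙ u)) := by
    intro u hu w hw hT' h0 hq hex
    have h1 := finrank_inf_perp (P := 𝒫) (perp 𝒫 W) (F ∙ u)
    have h2 := finrank_span_singleton_le (F := F) u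
    refine perp_of_inv (by omega) (fun x hx hx' => han x hx hx'.1) (fun a ha b hb hqa hab y hy => ?_)
      ?_
    · obtain ⟨s, hs, es⟩ := has_eu_stab_of_perp (P := 𝒫) (c := Q b) hqa hab (sub_self _) ha.1 hb.1
      rw [← es]
      refine hfix _ hT' h0 hq s hs ?_ y hy
      rw [es, eu_fix] <;> rw [map_add, B_symm _ u, B_symm _ w]
      · rw [mem_perp_singleton.1 ha.2, ha.1 w hw, add_zero]
      · rw [mem_perp_singleton.1 hb.2, hb.1 w hw, add_zero]
    by_cases ht : ∃ t : F, t * t ≠ t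
    · exact Or.inl ht
    refine Or.inr fun a ha hqa => ?_
    have h3 := finrank_inf_perp (P := 𝒫) (perp 𝒫 W ⊓ perp 𝒫 (F ∙ u)) (F ∙ a)
    have h5 := finrank_span_singleton_le (F := F) a
    rcases hex.resolve_left ht with h6 | h6
    · omega
    by_cases h7 : u ∈ F ∙ a
    · have h8 := finrank_inf_perp (P := 𝒫) (perp 𝒫 W) (F ∙ a)
      rw [inf_assoc, inf_eq_right.2 (perp_anti ((Submodule.span_singleton_le_iff_mem _ _).2 h7))]
      omega
    · exact Or.inr ⟨u, ⟨⟨hu, mem_perp_singleton.2 (by rw [B_self', h6, mul_zero])⟩,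
        mem_perp_singleton.2 ((B_symm _ _).trans (mem_perp_singleton.1 ha.2))⟩, h7, h6⟩
  have fin : ∀ u ∈ perp 𝒫 W, T ≤ perp 𝒫 (perp 𝒫 W ⊓ perp 𝒫 (F ∙ u)) → T ≤ W := by
    intro u hu h1
    by_cases h2 : perp 𝒫 W ≤ perp 𝒫 (F ∙ u)
    · rwa [inf_eq_left.2 h2, perp_perp hP] at h1
    obtain ⟨v, hv, hv'⟩ := SetLike.not_le_iff_exists.1 h2
    rw [mem_perp_singleton] at hv'
    have h3 := finrank_inf_perp (P := 𝒫) T (F ∙ v)
    have h5 := finrank_span_singleton_le (F := F) v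
    obtain ⟨d, hd, hd0, hq⟩ := isoK_quad Q (T ⊓ perp 𝒫 (F ∙ v)) (by omega)
    have h6 : d ∈ W := by
      rw [← perp_perp hP W]
      intro x hx
      have := h1 hd.1 (x - (𝔅 u x / 𝔅 u v) • v) ⟨sub_mem hx (Submodule.smul_mem _ _ hv),
        mem_perp_singleton.2 (by rw [map_sub, map_smul, smul_eq_mul, div_mul_cancel₀ _ hv', sub_self])⟩
      simpa [mem_perp_singleton.1 hd.2] using this
    have := K 0 (zero_mem _) d h6 (by simpa using hd.1) (by simpa using hd0) (by rw [zero_add]; exact hq)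
      (Or.inr (Or.inr (map_zero Q)))
    rwa [inf_eq_left.2 fun x _ => mem_perp_singleton.2 (by simp), perp_perp hP] at this
  by_contra hc
  have h1 : ∀ u ∈ perp 𝒫 W, ∀ w ∈ W, u + w ∈ T → u + w ≠ 0 → Q (u + w) = 0 →
      (∀ t : F, t * t = t) ∧ finrank F T = 4 ∧ Q u ≠ 0 := fun u hu w hw h1 h2 h3 => by
    have : ¬ _ := fun h => hc (fin u hu (K u hu w hw h1 h2 h3 h))
    push Not at this
    exact ⟨this.1, by omega, this.2.2⟩
  obtain ⟨d, hd, hd0, hq⟩ := isoK_quad Q T (by omega)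
  obtain ⟨u, hu, w, hw, rfl⟩ := exists_decomp hW d
  obtain ⟨ht, hT4, -⟩ := h1 u hu w hw hd hd0 hq
  have h8 : ∀ t : F, t ≠ 0 → t = 1 := fun t h0 =>
    mul_right_cancel₀ h0 ((ht t).trans (one_mul t).symm)
  have h2 : (2 : F) = 0 := by linear_combination ht (-1)
  have hanW : ∀ x ∈ T, x ∈ W → Q x = 0 → x = 0 := fun x hx hx' h0 => by
    by_contra h3
    exact (h1 0 (zero_mem _) x hx' (by simpa) (by simpa) (by simpa)).2.2 (map_zero Q)
  have hS : T ≤ T ⊓ perp 𝒫 W ⊔ T ⊓ W := le_of_sing hP hT hd hd0 hq fun x hx hqx => by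
    by_cases hx0 : x = 0
    · rw [hx0]; exact zero_mem _
    obtain ⟨u, hu, w, hw, rfl⟩ := exists_decomp hW x
    have h3 := h8 _ (h1 u hu w hw hx hx0 hqx).2.2
    have h5 : 𝔅 (u + w) u = 0 := by
      rw [map_add, LinearMap.add_apply, B_self', h2, hu w hw]; simp
    obtain ⟨s, hs, es⟩ := has_eu_EG (P := 𝒫) (c := Q u) hqx h5 (sub_self _)
    have h6 : u ∈ T := hno _ hx hx0 hqx u h5 ⟨s, ⟨mem_stab_of_maps fun y hy => by
      rw [es, eu_apply', mem_perp'.1 hu y hy, h3]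
      convert W.sub_mem hy (W.smul_mem (𝔅 (u + w) y) hw) using 1
      match_scalars <;> first | ring1 | linear_combination (-𝔅 (u + w) y) * h2, hs⟩, es⟩
    exact Submodule.add_mem_sup ⟨h6, hu⟩ ⟨(T.add_mem_iff_right h6).1 hx, hw⟩
  have hle : ∀ X : Submodule F V, (∀ x ∈ T, x ∈ X → Q x = 0 → x = 0) → finrank F ↥(T ⊓ X) ≤ 2 :=
    fun X hX => by
      by_contra h3
      obtain ⟨x, hx, hx0, hqx⟩ := isoK_quad Q (T ⊓ X) (by omega)
      exact hx0 (hX x hx.1 hx.2 hqx)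
  have h3 := hle _ han
  have h5 := hle _ hanW
  have h6 := (Submodule.finrank_mono hS).trans (finrank_sup_le' _ _)
  have key : ∀ X : Submodule F V, (∀ x ∈ T, x ∈ X → Q x = 0 → x = 0) → 2 ≤ finrank F ↥(T ⊓ X) →
      ∃ x ∈ T ⊓ X, ∃ y ∈ T ⊓ X, y ∉ F ∙ x ∧ Q x = 1 ∧ Q y = 1 ∧ 𝔅 x y = 1 := fun X hX hd => by
    obtain ⟨x, hx, hx0⟩ := exists_ne_zero_mem (X := T ⊓ X) (by omega)
    obtain ⟨y, hy, hyx⟩ : ∃ y ∈ T ⊓ X, y ∉ F ∙ x := by
      by_contra hc
      push Not at hc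
      have := Submodule.finrank_mono (show T ⊓ X ≤ F ∙ x from hc)
      have := finrank_span_singleton_le (F := F) x
      omega
    have e : ∀ z ∈ T ⊓ X, z ≠ 0 → Q z = 1 := fun z hz h0 => h8 _ fun h => h0 (hX z hz.1 hz.2 h)
    have e1 := e x hx hx0
    have e2 := e y hy fun h => hyx (h ▸ zero_mem _)
    have e3 := e _ (add_mem hx hy) fun h => hyx (by
      rw [eq_neg_of_add_eq_zero_right h]; exact neg_mem (Submodule.mem_span_singleton_self x))
    rw [Q_add', e1, e2] at e3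
    exact ⟨x, hx, y, hy, hyx, e1, e2, by linear_combination e3 - h2⟩
  obtain ⟨x, hx, y, hy, hyx, e1, e2, e3⟩ := key _ han (by omega)
  obtain ⟨x', hx', y', hy', -, e1', e2', e3'⟩ := key _ hanW (by omega)
  obtain ⟨t, ht'⟩ := Submodule.mem_span_singleton.1 (hmin ht hT4 _ (add_mem hx.1 hx'.1) _
    (add_mem hy.1 hy'.1) (fun h => by
      have := eq_zero_of_nd hW hx'.2 (by rw [eq_neg_of_add_eq_zero_right h]; exact neg_mem hx.2)
      rw [this, map_zero] at e1'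
      exact zero_ne_one e1')
    (by rw [Q_add', e1, e1', mem_perp'.1 hx.2 _ hx'.2]; linear_combination h2)
    (by rw [Q_add', e2, e2', mem_perp'.1 hy.2 _ hy'.2]; linear_combination h2)
    (by simp only [map_add, LinearMap.add_apply, e3, e3', mem_perp'.1 hx.2 _ hy'.2, hy.2 _ hx'.2]
        linear_combination h2))
  refine hyx (Submodule.mem_span_singleton.2 ⟨t, sub_eq_zero.1 (eq_zero_of_nd hW ?_
    (sub_mem (Submodule.smul_mem _ _ hx.2) hy.2))⟩)
  rw [show t • x - y = y' - t • x' by linear_combination (norm := module) ht']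
  exact sub_mem hy'.2 (Submodule.smul_mem _ _ hx'.2)

/-- Either `M` contains `E`, or each element of `M` stabilises `W` or maps `perp W` into `W`. -/
theorem EG_le_of_not_stab [Finite F] (hP : (𝒫).B.SeparatingLeft) (hn : 5 ≤ finrank F V)
    {W : Submodule F V} (hW : W ⊓ perp 𝒫 W = ⊥) (hirr : Irr 𝒫 W) (h4 : 4 ≤ finrank F (perp 𝒫 W))
    (hmin : (∀ t : F, t * t = t) → finrank F (perp 𝒫 W) = 4 → ∀ x ∈ perp 𝒫 W, ∀ y ∈ perp 𝒫 W,
      x ≠ 0 → Q x = 0 → Q y = 0 → 𝔅 x y = 0 → y ∈ F ∙ x)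
    (hH : stab W ⊓ EG 𝒫 ≤ M) (hM : M ≤ EG 𝒫) {g : V ≃ₗ[F] V} (hg : g ∈ M) (hg' : g ∉ stab W)
    (hswap : ¬ ∀ x ∈ perp 𝒫 W, g x ∈ W) : EG 𝒫 ≤ M := by
  by_contra hc
  have hno : ∀ d ∈ perp 𝒫 W, d ≠ 0 → (𝒫).q d ∈ (𝒫).Λ → ∀ y c, 𝔅 d y = 0 → c - (𝒫).q y ∈ (𝒫).Λ →
      Has M (eu 𝒫 d y c) → y ∈ perp 𝒫 W := fun d hd hd0 hq y c hdy hc' hM' => by
    by_contra hy
    exact hc ((agree_of_four hP hn hW h4 hd hd0 hq).EG_le_of_gain hP hirr hq hd
      (fun h => hd0 (eq_zero_of_nd hW h hd)) hH hdy hc' hy hM')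
  have hst := fun m => @stab_of_no_gain _ _ _ _ _ _ _ _ _ hP W hW hH hM hno m
  have hgI := EG_le_isom (hM hg)
  have hiI := (𝒫).Isom.inv_mem hgI
  have hQ : ∀ x, Q (g⁻¹ x) = Q x := PQ.mem_isom_ofQuad.1 hiI
  have hne : ∀ x : V, x ≠ 0 → g⁻¹ x ≠ 0 := fun x hx => by simpa using hx
  have hT : (perp 𝒫 W).map (g : V →ₗ[F] V) ≤ W := by
    refine le_of_core hP hW ?_ h4 (LinearEquiv.finrank_map_eq _ _) (fun x hx hx' hq => ?_)
      (fun d hd hd0 hq h hh hhd y hy => ?_) (fun d hd hd0 hq y hdy hy => ?_)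
      (fun ht hd x hx y hy hx0 hqx hqy hxy => ?_)
    · rw [eq_bot_iff]
      rintro _ ⟨⟨x, hx, rfl⟩, hx'⟩
      have := eq_zero_of_nd (perp_nondeg hP hW) hx fun u hu => by
        rw [← hgI.1]; exact hx' _ ⟨u, hu, rfl⟩
      simp [this]
    · by_contra h0
      exact hg' (by simpa using (stab W).inv_mem (hst _ (M.inv_mem hg) hx' h0 hq (mem_map_le'.1 hx)))
    · rw [mem_map_le'] at hd hy ⊢
      have := stab_perp (EG_le_isom (hM (M.mul_mem (M.mul_mem (M.inv_mem hg) (hH hh)) hg)))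
        (hst _ (M.mul_mem (M.mul_mem (M.inv_mem hg) (hH hh)) hg) hd (hne d hd0) ((hQ d).trans hq)
          (by rwa [le_mul_apply, le_mul_apply, le_apply_inv, hhd]))
      simpa only [le_mul_apply, le_apply_inv] using (this _).1 hy
    · rw [mem_map_le'] at hd ⊢
      exact hno _ hd (hne d hd0) ((hQ d).trans hq) _ _ (by rw [hiI.1, hdy])
        (isom_valid hiI (sub_self _)) (has_eu_conj (hy.mono hH) (M.inv_mem hg) hiI)
    · rw [mem_map_le'] at hx hy
      obtain ⟨t, ht'⟩ := Submodule.mem_span_singleton.1 (hmin ht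
        (by rwa [LinearEquiv.finrank_map_eq] at hd) _ hx _ hy (hne x hx0) ((hQ x).trans hqx)
        ((hQ y).trans hqy) (by rw [hiI.1, hxy]))
      exact Submodule.mem_span_singleton.2 ⟨t, (g⁻¹).injective (by rw [map_smul, ht'])⟩
  exact hswap fun x hx => hT ⟨x, hx, rfl⟩

theorem isMaximalIn_nondeg [Finite F] (hP : (𝒫).B.SeparatingLeft) {W : Submodule F V}
    (hW : W ⊓ perp 𝒫 W = ⊥) (h0 : W ≠ ⊥) (hirr : Irr 𝒫 W) (h4 : 4 ≤ finrank F (perp 𝒫 W))
    (hmin : (∀ t : F, t * t = t) → finrank F (perp 𝒫 W) = 4 → ∀ x ∈ perp 𝒫 W, ∀ y ∈ perp 𝒫 W,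
      x ≠ 0 → Q x = 0 → Q y = 0 → 𝔅 x y = 0 → y ∈ F ∙ x)
    (hswap : ∀ g ∈ (𝒫).Isom, ¬ ∀ x ∈ perp 𝒫 W, g x ∈ W) :
    Geo.IsMaximalIn (EG 𝒫) (stab W ⊓ EG 𝒫) := by
  have h1 := finrank_perp hP W
  have h2 : finrank F W ≠ 0 := fun h => h0 (Submodule.finrank_eq_zero.1 h)
  refine isMaximalIn_of inf_le_right (fun hle => (isoK_quad Q).not_EG_le_stab hP (by omega) h0 ?_
    (hle.trans inf_le_left)) fun M h3 h5 ⟨g, hg, hg'⟩ => EG_le_of_not_stab hP (by omega) hW hirr h4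
      hmin h3 h5 hg (fun hs => hg' ⟨hs, h5 hg⟩) (hswap g (EG_le_isom (h5 hg)))
  rintro rfl
  rw [finrank_top] at h1
  omega

theorem isMaximalIn_nondeg_ne [Finite F] (hP : (𝒫).B.SeparatingLeft) (hn : 7 ≤ finrank F V)
    (h7 : finrank F V = 7 → (2 : F) ≠ 0) {W : Submodule F V} (hW : W ⊓ perp 𝒫 W = ⊥) (h0 : W ≠ ⊥)
    (h1 : W ≠ ⊤) (hne : 2 * finrank F W ≠ finrank F V) (hirr : finrank F W = 2 → Irr 𝒫 W)
    (hirr' : finrank F (perp 𝒫 W) = 2 → Irr 𝒫 (perp 𝒫 W)) :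
    Geo.IsMaximalIn (EG 𝒫) (stab W ⊓ EG 𝒫) := by
  have key : ∀ W : Submodule F V, W ⊓ perp 𝒫 W = ⊥ → W ≠ ⊥ → (finrank F W = 2 → Irr 𝒫 W) →
      finrank F W < finrank F (perp 𝒫 W) → Geo.IsMaximalIn (EG 𝒫) (stab W ⊓ EG 𝒫) := by
    intro W hW h0 hirr hlt
    have h2 := finrank_perp hP W
    refine isMaximalIn_nondeg hP hW h0 ?_ (by omega) (fun ht h4 => absurd ?_ (h7 (by omega)))
      fun g _ => not_swap_of_lt hlt g
    · by_cases h : finrank F W = 2
      · exact hirr h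
      · exact irr_of_finrank_ne hP hW h
    · linear_combination ht (-1)
  have h2 := finrank_perp hP W
  rcases lt_trichotomy (finrank F W) (finrank F (perp 𝒫 W)) with h3 | h3 | h3
  · exact key W hW h0 hirr h3
  · omega
  · rw [← stab_perp_inf hP W EG_le_isom]
    exact key _ (perp_nondeg hP hW) (perp_ne_bot hP h1) hirr' (by rwa [perp_perp hP])

theorem isMaximalIn_nondeg_half [Finite F] (hP : (𝒫).B.SeparatingLeft) (hn : 8 ≤ finrank F V)
    {W : Submodule F V} (hW : W ⊓ perp 𝒫 W = ⊥) (he : 2 * finrank F W = finrank F V)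
    (hmin : finrank F V = 8 → ∀ X : Submodule F V, (∀ x ∈ X, Q x = 0) → finrank F X ≠ 4)
    (hswap : ∀ g ∈ (𝒫).Isom, ¬ ∀ x ∈ perp 𝒫 W, g x ∈ W) :
    Geo.IsMaximalIn (EG 𝒫) (stab W ⊓ EG 𝒫) := by
  have h2 := finrank_perp hP W
  have key : ∀ U : Submodule F V, (∀ x ∈ U, ∀ y ∈ U, x ≠ 0 → Q x = 0 → Q y = 0 → 𝔅 x y = 0 →
      y ∈ F ∙ x) ∨ ∃ X ≤ U, (∀ x ∈ X, Q x = 0) ∧ finrank F X = 2 := fun U => by
    by_contra hc
    push Not at hc
    obtain ⟨⟨x, hx, y, hy, hx0, hqx, hqy, hxy, hyx⟩, hc⟩ := hc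
    refine hc ((F ∙ x) ⊔ F ∙ y) (sup_le ((Submodule.span_singleton_le_iff_mem _ _).2 hx)
      ((Submodule.span_singleton_le_iff_mem _ _).2 hy)) (ts_sup_span (fun w hw => ?_) hqy
        (mem_perp_singleton.2 hxy)) ?_
    · obtain ⟨a, rfl⟩ := Submodule.mem_span_singleton.1 hw
      rw [H12.Q_smul, hqx, mul_zero]
    · rw [Submodule.finrank_sup_span_singleton hyx, finrank_span_singleton hx0]
  have hne : ∀ U : Submodule F V, 2 * finrank F U = finrank F V → U ≠ ⊥ := by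
    rintro _ h rfl
    rw [finrank_bot] at h
    omega
  rcases key (perp 𝒫 W) with h3 | ⟨X, hX, hX', hX''⟩
  · exact isMaximalIn_nondeg hP hW (hne W he) (irr_of_finrank_ne hP hW (by omega)) (by omega)
      (fun _ _ => h3) hswap
  by_cases h8 : finrank F V = 8
  swap
  · exact isMaximalIn_nondeg hP hW (hne W he) (irr_of_finrank_ne hP hW (by omega)) (by omega)
      (fun _ _ => by omega) hswap
  rcases key W with h3 | ⟨Y, hY, hY', hY''⟩
  · rw [← stab_perp_inf hP W EG_le_isom]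
    refine isMaximalIn_nondeg hP (perp_nondeg hP hW) (hne _ (by omega))
      (irr_of_finrank_ne hP (perp_nondeg hP hW) (by omega)) (by rw [perp_perp hP]; omega)
      (fun _ _ => by rwa [perp_perp hP]) fun g hg h => hswap g⁻¹ ((𝒫).Isom.inv_mem hg) fun x hx => ?_
    rw [perp_perp hP] at h
    rwa [← map_eq_of_maps h (by omega), mem_map_le'] at hx
  refine absurd ?_ (hmin h8 (X ⊔ Y) fun x hx => ?_)
  · have := Submodule.finrank_sup_add_finrank_inf_eq X Y
    rw [show X ⊓ Y = ⊥ from eq_bot_iff.2 fun x hx => eq_zero_of_nd hW (hY hx.2) (hX hx.1),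
      finrank_bot] at this
    omega
  · obtain ⟨a, ha, b, hb, rfl⟩ := Submodule.mem_sup.1 hx
    rw [Q_add', hX' a ha, hY' b hb, mem_perp'.1 (hX ha) b (hY hb)]
    simp

end Quad

section Matrix

variable {F : Type*} [Field F] [Fintype F] {ι : Type} [Fintype ι] [DecidableEq ι]
  {Q : QuadraticForm F (ι → F)}

theorem finrank_V : finrank F (ι → F) = Fintype.card ι := Module.finrank_fintype_fun_eq_card F

theorem omega_ts (hQ : (QuadraticMap.polarBilin Q).SeparatingLeft) (hn : 5 ≤ Fintype.card ι)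
    {W : Submodule F (ι → F)} (h0 : W ≠ ⊥) (hW : Geo.IsTotallySingularQuad Q W)
    (hd : 2 * (finrank F W + 1) ≠ Fintype.card ι ∨ ¬ Geo.IsPlusTypeOn Q ⊤) :
    Geo.IsMaximalIn (Geo.omegaGL Q) (Geo.subspaceStabilizer W ⊓ Geo.omegaGL Q) := by
  rw [omegaGL_eq hQ hn, subspaceStabilizer_eq, ← pull_inf]
  refine isMaximalIn_pull ((isoK_quad Q).isMaximalIn_totSing hQ (by rwa [finrank_V]) h0 hW
    (polar_eq_zero_of_ts hW) (Or.inr fun y hy hy' hq => ?_))
  refine lt_of_le_of_ne (two_mul_succ_le hQ hW hq hy hy') fun h => hd.elim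
    (fun h1 => h1 (h.trans finrank_V)) fun h1 => h1 ⟨W ⊔ F ∙ y, le_top, ts_sup_span hW hq hy, ?_⟩
  rw [Submodule.finrank_sup_span_singleton hy', finrank_top, h]

theorem omega_point (hQ : (QuadraticMap.polarBilin Q).SeparatingLeft) (hn : 7 ≤ Fintype.card ι)
    {v : ι → F} (hv : Q v ≠ 0) :
    Geo.IsMaximalIn (Geo.omegaGL Q) (Geo.subspaceStabilizer (F ∙ v) ⊓ Geo.omegaGL Q) := by
  rw [omegaGL_eq hQ (by omega), subspaceStabilizer_eq, ← pull_inf]
  exact isMaximalIn_pull ((isoK_quad Q).isMaximalIn_point hQ (by rwa [finrank_V]) hv)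

theorem omega_nd (hQ : (QuadraticMap.polarBilin Q).SeparatingLeft) (hn : 7 ≤ Fintype.card ι)
    (h7 : Fintype.card ι = 7 → Odd (Fintype.card F)) {W : Submodule F (ι → F)}
    (hW : Geo.IsNondegenerateOn (QuadraticMap.polar Q) W) (h0 : finrank F W ≠ 0)
    (h1 : finrank F W ≠ Fintype.card ι) (hne : 2 * finrank F W ≠ Fintype.card ι)
    (h2 : finrank F W + 2 ≠ Fintype.card ι)
    (hex : finrank F W = 2 → Geo.IsPlusTypeOn Q W → 4 ≤ Fintype.card F) :
    Geo.IsMaximalIn (Geo.omegaGL Q) (Geo.subspaceStabilizer W ⊓ Geo.omegaGL Q) := by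
  rw [omegaGL_eq hQ (by omega), subspaceStabilizer_eq, ← pull_inf]
  rw [nondegOn_quad] at hW
  have h3 := finrank_perp (P := PQ.ofQuad Q) hQ W
  rw [finrank_V] at h3
  refine isMaximalIn_pull (isMaximalIn_nondeg_ne hQ (by rwa [finrank_V])
    (fun h => two_ne_zero_of_odd (h7 (by rwa [finrank_V] at h))) hW ?_ ?_ (by rwa [finrank_V])
    (fun h => (irr_or_plus hQ hW).resolve_right fun ⟨h4, h5, h6⟩ => ?_) fun h => by omega)
  · rintro rfl; exact h0 (finrank_bot _ _)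
  · rintro rfl; exact h1 (by rw [finrank_top, finrank_V])
  · have := hex h5 h6
    omega

theorem omega_nd_half (hQ : (QuadraticMap.polarBilin Q).SeparatingLeft) (hn : 8 ≤ Fintype.card ι)
    (hm : ¬ Geo.IsPlusTypeOn Q ⊤) {W : Submodule F (ι → F)}
    (hW : Geo.IsNondegenerateOn (QuadraticMap.polar Q) W) (he : 2 * finrank F W = Fintype.card ι)
    (h2 : Even (finrank F W)) :
    Geo.IsMaximalIn (Geo.omegaGL Q) (Geo.subspaceStabilizer W ⊓ Geo.omegaGL Q) := by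
  rw [omegaGL_eq hQ (by omega), subspaceStabilizer_eq, ← pull_inf]
  rw [nondegOn_quad] at hW
  have h3 := finrank_perp (P := PQ.ofQuad Q) hQ W
  have h4 := finrank_V (F := F) (ι := ι)
  refine isMaximalIn_pull (isMaximalIn_nondeg_half hQ (by omega) hW (by omega)
    (fun h X hX hX' => hm ⟨X, le_top, hX, by rw [finrank_top]; omega⟩) fun g hg hsw => ?_)
  obtain ⟨U, hU, hU'⟩ := plus_of_swap hQ hW h2 (by omega) hg hsw
  exact hm ⟨U, le_top, hU, by rw [hU', finrank_top]⟩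

theorem omega_halves (hQ : (QuadraticMap.polarBilin Q).SeparatingLeft) (hn : 9 ≤ Fintype.card ι)
    {k : ℕ} {D : Fin 2 → Submodule F (ι → F)}
    (hD : Geo.IsNondegenerateMDecomposition (QuadraticMap.polar Q) k D)
    (hni : ¬ Geo.AreIsometricFor Q (D 0) (D 1)) :
    Geo.IsMaximalIn (Geo.omegaGL Q) (Geo.decompositionStabilizer D ⊓ Geo.omegaGL Q) := by
  rw [omegaGL_eq hQ (by omega), decompositionStabilizer_eq, ← pull_inf]
  have hW := nondegOn_quad.1 (hD.nondegenerate 0)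
  have h1 : D 1 = perp (PQ.ofQuad Q) (D 0) := eq_perp_of_orth hW
    (fun x hx u hu => hD.orthogonal 0 1 (by decide) u hu x hx)
    (by rw [← iSup_two, hD.decomp.iSup_eq_top])
  have h0 := hD.decomp.finrank_eq 0
  have h2 := hD.decomp.finrank_eq 1
  have h3 : dstab D ⊓ EG (PQ.ofQuad Q) = stab (D 0) ⊓ EG (PQ.ofQuad Q) := by
    ext g
    constructor
    · rintro ⟨hg, hg'⟩
      rcases mem_dstab_two.1 hg with h | h
      · exact ⟨h.1, hg'⟩
      · exact absurd (isometric_of_map (EG_le_isom hg') h.1) hni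
    · rintro ⟨hg, hg'⟩
      exact ⟨mem_dstab_two.2 (Or.inl ⟨hg, h1 ▸ stab_perp (EG_le_isom hg') hg⟩), hg'⟩
  rw [h3]
  have h4 := finrank_perp (P := PQ.ofQuad Q) hQ (D 0)
  have h5 := finrank_V (F := F) (ι := ι)
  rw [← h1] at h4
  refine isMaximalIn_pull (isMaximalIn_nondeg_half hQ (by omega) hW (by omega) (fun h => by omega)
    fun g hg hsw => hni ?_)
  rw [← h1] at hsw
  exact isometric_of_map ((PQ.ofQuad Q).Isom.inv_mem hg) (map_inv_le (map_eq_of_maps hsw (by omega)))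

end Matrix

end H12G
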